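import Cfsg.Agent.H250.EP.TF

/-!
# The Tits group: no abelian normal subgroup of the stabiliser (helper250)
-/

set_option autoImplicit false
set_option linter.unusedSectionVars false
set_option linter.style.haveILetI false

namespace Cfsg.Agent.H250.EP

open MulAction Subgroup Cfsg.Agent.H284 Cfsg.Agent.H209.EPX Cfsg.Agent.H247.EPR

/-- the two point stabilisers are complements of `X`: at most `|X|` of them, `X` a Hall subgroup -/
theorem ncard_twoSet_le {G : Type*} [Group G] [Finite G] {H X : Subgroup G} (h : EP H) (hX : X ≤ H)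
    (hXn : ∀ g ∈ H, ∀ k ∈ X, g * k * g⁻¹ ∈ X) (hne : X ≠ ⊥) (hab : ∀ a ∈ X, ∀ b ∈ X, a * b = b * a)
    (hcop : ∀ x ∉ H, (Nat.card X).Coprime (Nat.card (H ⊓ cj x H : Subgroup G))) : (EP.twoSet H).ncard ≤ Nat.card X := by
  classical
  obtain ⟨x₀, hx₀⟩ := h.exists_notMem
  have hN : (X.subgroupOf H).Normal := ⟨fun n hn g => hXn g g.2 n hn⟩
  have hcX : Nat.card (X.subgroupOf H) = Nat.card X := Nat.card_congr (Subgroup.subgroupOfEquivOfLe hX).toEquiv
  have hcM : ∀ x, Nat.card ((H ⊓ cj x H).subgroupOf H) = Nat.card (H ⊓ cj x H : Subgroup G) := fun x =>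
    Nat.card_congr (Subgroup.subgroupOfEquivOfLe inf_le_left).toEquiv
  have hcompl : ∀ x ∉ H, Subgroup.IsComplement' (X.subgroupOf H) ((H ⊓ cj x H).subgroupOf H) := by
    intro x hx
    apply Subgroup.isComplement'_of_card_mul_and_disjoint
    · rw [hcX, hcM]
      exact h.ab_card hX hXn hne hab hx
    · rw [disjoint_iff, Subgroup.eq_bot_iff_forall]
      intro y hy
      have h1 : (y : G) ∈ X ⊓ cj x H := ⟨(mem_inf.1 hy).1, (mem_inf.1 (show (y : G) ∈ H ⊓ cj x H from (mem_inf.1 hy).2)).2⟩
      rw [h.ab_inf hX hXn hne hab hx, mem_bot] at h1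
      exact Subtype.ext h1
  have hidx : (X.subgroupOf H).index = Nat.card (H ⊓ cj x₀ H : Subgroup G) := by
    have h1 := (X.subgroupOf H).card_mul_index
    rw [hcX, ← h.ab_card hX hXn hne hab hx₀] at h1
    exact Nat.eq_of_mul_eq_mul_left Nat.card_pos h1
  have hsol : Group.IsSolvable (X.subgroupOf H) := by
    have hcm : ∀ a b : X.subgroupOf H, a * b = b * a := fun a b =>
      Subtype.ext (Subtype.ext (hab _ (mem_subgroupOf.1 a.2) _ (mem_subgroupOf.1 b.2)))
    letI : CommGroup (X.subgroupOf H) := { (inferInstance : Group (X.subgroupOf H)) with mul_comm := hcm }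
    exact Group.isSolvable_of_comm hcm
  let f : X → Subgroup G := fun x => cj x (H ⊓ cj x₀ H)
  have h1 : EP.twoSet H ⊆ Set.range f := by
    rintro _ ⟨x, hx, rfl⟩
    obtain ⟨g, hg⟩ := Cfsg.Agent.S0001.result (X.subgroupOf H) (by rw [hcX, hidx]; exact hcop x₀ hx₀) (Or.inl hsol) _ _
      (hcompl x₀ hx₀) (hcompl x hx)
    -- `g = k m`
    obtain ⟨k, hk, m, hm, hgm⟩ : ∃ k ∈ X.subgroupOf H, ∃ m ∈ (H ⊓ cj x₀ H).subgroupOf H, g = k * m := by
      obtain ⟨⟨k, m⟩, hkm⟩ := (hcompl x₀ hx₀).2 g
      exact ⟨k, k.2, m, m.2, hkm.symm⟩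
    refine ⟨⟨k, hk⟩, ?_⟩
    show cj (k : G) (H ⊓ cj x₀ H) = H ⊓ cj x H
    apply Subgroup.eq_of_le_of_card_ge
    · rintro _ ⟨u, hu, rfl⟩
      have hu' : (⟨u, (mem_inf.1 hu).1⟩ : H) ∈ (H ⊓ cj x₀ H).subgroupOf H := hu
      have h2 : m⁻¹ * ⟨u, (mem_inf.1 hu).1⟩ * m ∈ (H ⊓ cj x₀ H).subgroupOf H := mul_mem (mul_mem (inv_mem hm) hu') hm
      have h3 : g * (m⁻¹ * ⟨u, (mem_inf.1 hu).1⟩ * m) * g⁻¹ ∈ (H ⊓ cj x H).subgroupOf H := by
        rw [← hg]
        exact Subgroup.smul_mem_pointwise_smul _ (MulAut.conj g) _ h2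
      have h4 : g * (m⁻¹ * ⟨u, (mem_inf.1 hu).1⟩ * m) * g⁻¹ = k * ⟨u, (mem_inf.1 hu).1⟩ * k⁻¹ := by
        rw [hgm]
        group
      rw [h4] at h3
      exact h3
    · rw [card_cj]
      have h2 := h.ab_card hX hXn hne hab hx
      have h3 := h.ab_card hX hXn hne hab hx₀
      exact (Nat.eq_of_mul_eq_mul_left Nat.card_pos (h2.trans h3.symm)).le
  calc (EP.twoSet H).ncard ≤ (Set.range f).ncard := Set.ncard_le_ncard h1 (Set.toFinite _)
    _ ≤ Nat.card X := by
      rw [← Set.image_univ, ← Set.ncard_univ]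
      exact Set.ncard_image_le (Set.toFinite _)

/-- a group acting faithfully on a set of four elements -/
theorem card_le_perm {G : Type*} [Group G] [Finite G] {M X : Subgroup G} (hXn : ∀ g ∈ M, ∀ k ∈ X, g * k * g⁻¹ ∈ X)
    (hc : ∀ g ∈ M, (∀ k ∈ X, g * k = k * g) → g = 1) : Nat.card M ≤ (Nat.card X).factorial := by
  classical
  have hft := Fintype.ofFinite X
  have h1 : Nat.card (Equiv.Perm X) = (Nat.card X).factorial := by
    rw [Nat.card_eq_fintype_card, Fintype.card_perm, Nat.card_eq_fintype_card]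
  rw [← h1]
  have hinv : ∀ g ∈ M, ∀ k ∈ X, g⁻¹ * k * g ∈ X := by
    intro g hg k hk
    have := hXn g⁻¹ (inv_mem hg) k hk
    rwa [inv_inv] at this
  refine Nat.card_le_card_of_injective (fun g : M => (⟨fun k => ⟨g * k * (g : G)⁻¹, hXn g g.2 k k.2⟩,
    fun k => ⟨(g : G)⁻¹ * k * g, hinv g g.2 k k.2⟩, fun k => Subtype.ext (by simp [mul_assoc]),
    fun k => Subtype.ext (by simp [mul_assoc])⟩ : Equiv.Perm X)) ?_
  intro a b e
  have h2 : ∀ k ∈ X, (a : G) * k * (a : G)⁻¹ = b * k * (b : G)⁻¹ := by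
    intro k hk
    have := congrArg (fun s : Equiv.Perm X => ((s ⟨k, hk⟩ : X) : G)) e
    exact this
  have h3 : (b : G)⁻¹ * a = 1 := by
    apply hc _ (mul_mem (inv_mem b.2) a.2)
    intro k hk
    have h4 := h2 k hk
    have h5 : (a : G) * k = b * k * (b : G)⁻¹ * a := mul_inv_eq_iff_eq_mul.1 h4
    rw [mul_assoc, h5]
    group
  exact Subtype.ext (inv_mul_eq_one.1 h3).symm

namespace TF

variable {G : Type*} [Group G] [Finite G] (F : TF G) [IsSimpleGroup G]

include F

theorem no_aff {H X : Subgroup G} (hX : EPA2 H X) : False := by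
  have h := hX.ep
  have hXH := hX.m.le
  have hXn := hX.m.nrm
  have hne := hX.m.ne
  have hab := hX.ab
  obtain ⟨x₀, hx₀⟩ := h.exists_notMem
  obtain ⟨r, hr, hexp⟩ := h.ab_elem hXH hXn hne hab
  have hf := Fact.mk hr
  have hp : IsPGroup r X := fun x => ⟨1, by rw [pow_one]; exact Subtype.ext (hexp x x.2)⟩
  obtain ⟨k, hk⟩ := IsPGroup.iff_card.1 hp
  have hk0 : k ≠ 0 := by
    rintro rfl
    exact hne (Subgroup.card_eq_one.1 (by rw [hk, pow_zero]))
  have hidx := h.ab_index hXH hXn hne hab
  have hmul := H.card_mul_index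
  rw [F.card] at hmul
  have hcard := h.ab_card hXH hXn hne hab hx₀
  have hrG : r ∣ 17971200 := by
    rw [← F.card]
    exact (dvd_pow_self r hk0).trans (hk ▸ Subgroup.card_subgroup_dvd_card X)
  have hXG : r ^ k ∣ 17971200 := by
    rw [← F.card, ← hk]
    exact Subgroup.card_subgroup_dvd_card X
  have hr' : r = 2 ∨ r = 3 ∨ r = 5 ∨ r = 13 := by
    have h1 : r ∈ Nat.primeFactors 17971200 := Nat.mem_primeFactors.2 ⟨hr, hrG, by norm_num⟩
    have h2 : Nat.primeFactors 17971200 = {2, 3, 5, 13} := by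
      rw [show 17971200 = 2 ^ 11 * 3 ^ 3 * 5 ^ 2 * 13 by norm_num]
      rw [Nat.primeFactors_mul (by norm_num) (by norm_num), Nat.primeFactors_mul (by norm_num) (by norm_num),
        Nat.primeFactors_mul (by norm_num) (by norm_num), Nat.primeFactors_prime_pow (by norm_num) Nat.prime_two,
        Nat.primeFactors_prime_pow (by norm_num) Nat.prime_three, Nat.primeFactors_prime_pow (by norm_num) Nat.prime_five,
        Nat.Prime.primeFactors (by norm_num)]
      decide
    rw [h2] at h1
    simpa using h1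
  have hone : k = 1 → 17971200 ≤ r ^ 3 * (r - 1) := by
    rintro rfl
    rw [← F.card]
    exact card_le_of_prime F.na h hXH hXn hr (by rw [hk, pow_one])
  -- the elements of `X`
  obtain ⟨z, hz, hz1⟩ : ∃ z ∈ X, z ≠ 1 := by
    by_contra hcon
    push Not at hcon
    exact hne ((Subgroup.eq_bot_iff_forall X).2 hcon)
  have hzr : orderOf z = r := orderOf_eq_prime (hexp z hz) hz1
  rcases hr' with rfl | rfl | rfl | rfl
  · -- `r = 2`
    have hodd : ¬ 2 ∣ H.index := by
      intro hd
      have h1 : H.index ≡ 1 [MOD 2] := hidx.of_dvd (by rw [hk]; exact dvd_pow_self 2 hk0)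
      have h2 : H.index % 2 = 1 := h1
      omega
    have h11 : 2 ^ 11 ∣ Nat.card H := by
      have h1 : 2 ^ 11 ∣ Nat.card H * H.index := by rw [hmul]; norm_num
      exact (Nat.Coprime.pow_left 11 ((Nat.Prime.coprime_iff_not_dvd Nat.prime_two).2 hodd)).dvd_of_dvd_mul_right h1
    have hH : Nat.card H = 2 ^ 11 ∨ Nat.card H = 2 ^ 11 * 3 ∨ Nat.card H = 2 ^ 11 * 5 := by
      obtain ⟨c, hc⟩ := h11
      rcases F.odd H h.max.1 hodd with h1 | h1
      · rw [hc] at h1 ⊢
        have h2 := Nat.dvd_of_mul_dvd_mul_left (by norm_num) h1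
        rcases (Nat.dvd_prime Nat.prime_three).1 h2 with rfl | rfl
        · left; norm_num
        · right; left; rfl
      · rw [hc] at h1 ⊢
        have h2 := Nat.dvd_of_mul_dvd_mul_left (by norm_num) h1
        rcases (Nat.dvd_prime Nat.prime_five).1 h2 with rfl | rfl
        · left; norm_num
        · right; right; rfl
    have hk2 : k ≤ 2 := by
      by_contra hk3
      have h8 : H.index ≡ 1 [MOD 8] := hidx.of_dvd (by
        rw [hk]
        exact pow_dvd_pow 2 (show 3 ≤ k by omega))
      have h9 : H.index % 8 = 1 := h8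
      rcases hH with h1 | h1 | h1 <;> rw [h1] at hmul <;> omega
    have hM : Nat.card (H ⊓ cj x₀ H : Subgroup G) ≤ (Nat.card X).factorial := by
      apply card_le_perm (fun g hg => hXn g (mem_inf.1 hg).1)
      intro g hg hc
      have h1 := h.ab_cent hXH hXn hne hab (mem_inf.1 hg).1 (c := g) hc
      have h2 : g ∈ X ⊓ cj x₀ H := ⟨h1, (mem_inf.1 hg).2⟩
      rwa [h.ab_inf hXH hXn hne hab hx₀, mem_bot] at h2
    have hk12 : k = 1 ∨ k = 2 := by omega
    rw [hk] at hM hcard
    rcases hk12 with rfl | rfl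
    · norm_num [Nat.factorial] at hM hcard
      rcases hH with h1 | h1 | h1 <;> rw [h1] at hcard <;> omega
    · norm_num [Nat.factorial] at hM hcard
      rcases hH with h1 | h1 | h1 <;> rw [h1] at hcard <;> omega
  · -- `r = 3`
    have h3n : ¬ 3 ∣ H.index := by
      intro hd
      have h1 : H.index ≡ 1 [MOD 3] := hidx.of_dvd (by rw [hk]; exact dvd_pow_self 3 hk0)
      have h2 : H.index % 3 = 1 := h1
      omega
    have h27 : 3 ^ 3 ∣ Nat.card H := by
      have h1 : 3 ^ 3 ∣ Nat.card H * H.index := by rw [hmul]; norm_num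
      exact (Nat.Coprime.pow_left 3 ((Nat.Prime.coprime_iff_not_dvd Nat.prime_three).2 h3n)).dvd_of_dvd_mul_right h1
    have hk3 : k ≤ 3 := by
      by_contra hk4
      have h1 : 3 ^ 4 ∣ 17971200 := (pow_dvd_pow 3 (show 4 ≤ k by omega)).trans hXG
      norm_num at h1
    have hk' : k = 1 ∨ k = 2 ∨ k = 3 := by omega
    rcases hk' with rfl | rfl | rfl
    · have := hone rfl
      norm_num at this
    · -- an element of order 3 in `M`
      have h3 : 3 ∣ Nat.card (H ⊓ cj x₀ H : Subgroup G) := by
        rw [hk] at hcard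
        obtain ⟨c, hc⟩ := h27
        rw [hc] at hcard
        exact ⟨c, by omega⟩
      obtain ⟨⟨y, hy⟩, hy3⟩ := exists_prime_orderOf_dvd_card' 3 h3
      rw [Subgroup.orderOf_mk] at hy3
      obtain ⟨w, hw⟩ := isConj_iff.1 (F.conj3 z y hzr hy3)
      have key : ∀ u : G, z ∈ cj u H → u ∈ H := by
        intro u hu
        by_contra hcon
        have h4 : z ∈ X ⊓ cj u H := ⟨hz, hu⟩
        rw [h.ab_inf hXH hXn hne hab hcon, mem_bot] at h4
        exact hz1 h4
      have h5 : w⁻¹ ∈ H := by
        apply key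
        rw [mem_cj, inv_inv, hw]
        exact (mem_inf.1 hy).1
      have h6 : w⁻¹ * x₀ ∈ H := by
        apply key
        have h7 := mem_cj.1 (mem_inf.1 hy).2
        rw [mem_cj]
        have e : (w⁻¹ * x₀)⁻¹ * z * (w⁻¹ * x₀) = x₀⁻¹ * (w * z * w⁻¹) * x₀ := by group
        rw [e, hw]
        exact h7
      apply hx₀
      have e : x₀ = (w⁻¹)⁻¹ * (w⁻¹ * x₀) := by group
      rw [e]
      exact H.mul_mem (H.inv_mem h5) h6
    · -- `|X| = 27`
      have hX27 : Nat.card X = 27 := by rw [hk]; norm_num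
      have h1 := F.card_le_of_norm hXn hX27 (fun y hy => (F.c3 y hy).le) hz hzr (by norm_num)
      norm_num at h1
      have h5 : ¬ 5 ∣ Nat.card H := by
        intro h5
        have hf5 := Fact.mk Nat.prime_five
        obtain ⟨y, hy⟩ := exists_prime_orderOf_dvd_card' 5 h5
        have hy5 : orderOf (y : G) = 5 := by rw [Subgroup.orderOf_coe, hy]
        -- `y` acts on `X`
        let A := zpowers (y : G)
        have hA : ∀ g ∈ A, g ∈ H := fun g hg => zpowers_le.2 y.2 hg
        let act : MulAction A X :=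
          { smul := fun a x => ⟨a * x * (a : G)⁻¹, hXn a (hA a a.2) x x.2⟩
            one_smul := fun x => Subtype.ext (by show (1 : G) * x * (1 : G)⁻¹ = x; simp)
            mul_smul := fun a b x => Subtype.ext (by
              show (a * b : G) * x * (a * b : G)⁻¹ = a * (b * x * (b : G)⁻¹) * (a : G)⁻¹
              group) }
        have h6 := @card_modEq_one A X _ act _ _ (1 : X) (fun a => Subtype.ext (by
            show (a : G) * 1 * (a : G)⁻¹ = 1
            simp)) (by
          intro a x hx hax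
          by_contra ha
          have h7 : (a : G) * x * (a : G)⁻¹ = x := Subtype.ext_iff.1 hax
          have h8 : orderOf (x : G) = 3 := by
            apply orderOf_eq_prime (hexp x x.2)
            intro e
            exact hx (Subtype.ext e)
          have h9 : orderOf (a : G) = 5 := by
            have hAc : Nat.card A = 5 := by rw [Nat.card_zpowers, hy5]
            have h10 : orderOf a ∣ 5 := by rw [← hAc]; exact orderOf_dvd_natCard _
            rcases (Nat.dvd_prime Nat.prime_five).1 h10 with h11 | h11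
            · exact absurd (orderOf_eq_one_iff.1 h11) ha
            · rw [Subgroup.orderOf_coe, h11]
          exact F.ncomm x a h8 h9 (mul_inv_eq_iff_eq_mul.1 h7).symm)
        rw [hX27, Nat.card_zpowers, hy5] at h6
        exact absurd h6 (by decide)
      have h2 := (F.os' h.max.1)
      have h7 : H.index % 27 = 1 := by
        have h8 : H.index ≡ 1 [MOD 27] := by rw [hX27] at hidx; exact hidx
        exact h8
      generalize H.index = n at *
      generalize Nat.card H = m at *
      have hmd : (List.all (1 :: tos) fun m => Nat.ble 2809 m || (m % 27 != 0) || (m % 5 == 0) || (17971200 / m) % 27 != 1) = true := by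
        decide
      have hm : m ∈ 1 :: tos := by
        rcases h2 with h2 | h2
        · rw [h2]; exact List.mem_cons_self
        · exact List.mem_cons_of_mem _ h2
      have h3 := List.all_eq_true.1 hmd m hm
      have hn : 17971200 / m = n := Nat.div_eq_of_eq_mul_right (by
        rcases Nat.eq_zero_or_pos m with h0 | h0
        · rw [h0, zero_mul] at hmul
          exact absurd hmul (by norm_num)
        · exact h0) hmul.symm
      rw [hn, h7] at h3
      have h4 : m % 27 = 0 := by
        obtain ⟨c, hc⟩ := h27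
        omega
      have h6 : m % 5 ≠ 0 := fun e => h5 (Nat.dvd_of_mod_eq_zero e)
      simp [h4, h6] at h3
      omega
  · -- `r = 5`
    have hk2 : k ≤ 2 := by
      by_contra hk3
      have h1 : 5 ^ 3 ∣ 17971200 := (pow_dvd_pow 5 (show 3 ≤ k by omega)).trans hXG
      norm_num at h1
    have hk' : k = 1 ∨ k = 2 := by omega
    rcases hk' with rfl | rfl
    · have := hone rfl
      norm_num at this
    · have hX25 : Nat.card X = 25 := by rw [hk]; norm_num
      have hH : Nat.card H ≤ 1200 := by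
        rw [← F.norm25 hX25]
        apply Subgroup.card_le_of_le
        intro g hg
        rw [mem_normalizer_iff]
        intro k
        refine ⟨hXn g hg k, fun hk => ?_⟩
        have := hXn g⁻¹ (inv_mem hg) _ hk
        have e : g⁻¹ * (g * k * g⁻¹) * g⁻¹⁻¹ = k := by group
        rwa [e] at this
      have h1 := ncard_twoSet_le h hXH hXn hne hab (by
        intro x hx
        rw [hX25]
        have h2 := h.ab_card hXH hXn hne hab hx
        obtain ⟨r, hr, hr5, -⟩ := F.card25 (K := H) (by rw [← h2, hX25]; exact dvd_mul_right _ _)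
        have h3 : Nat.card (H ⊓ cj x H : Subgroup G) = r := by
          rw [hX25, hr] at h2
          omega
        rw [h3]
        exact Nat.Coprime.pow_left 2 ((Nat.Prime.coprime_iff_not_dvd Nat.prime_five).2 hr5))
      have h2 := h.index_le_sq (fun x hx => two_ne_bot F.na h hx)
      rw [hX25] at h1
      have h3 : (EP.twoSet H).ncard ^ 2 ≤ 25 ^ 2 := Nat.pow_le_pow_left h1 2
      have h4 : Nat.card H * H.index ≤ 1200 * 25 ^ 2 := Nat.mul_le_mul hH (h2.trans h3)
      rw [hmul] at h4
      norm_num at h4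
  · have hk1 : k = 1 := by
      by_contra hk2
      have h1 : 13 ^ 2 ∣ 17971200 := (pow_dvd_pow 13 (show 2 ≤ k by omega)).trans hXG
      norm_num at h1
    have := hone hk1
    norm_num at this

end TF

end Cfsg.Agent.H250.EP
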