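import Cfsg.Agent.H250.EP.Syl
import Cfsg.Agent.H247.EPR.Core
import Cfsg.Agent.S0001

/-!
# Extremely primitive groups: the Tits group, the facts (helper250)
-/

set_option autoImplicit false
set_option linter.unusedSectionVars false
set_option linter.style.haveILetI false

namespace Cfsg.Agent.H250.EP

open MulAction Subgroup Cfsg.Agent.H284 Cfsg.Agent.H209.EPX

/-- the orders of the proper subgroups (from `H147.Gen.Tits.os`) -/
def tos : List ℕ := [2, 3, 4, 5, 6, 8, 9, 10, 12, 13, 15, 16, 18, 20, 24, 25, 26, 27, 30, 32, 36, 39, 40, 45, 48, 50, 54, 60, 64, 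
    72, 75, 78, 80, 90, 96, 100, 108, 120, 128, 135, 144, 150, 160, 180, 192, 200, 216, 225, 240, 256, 270, 288, 
    300, 320, 351, 360, 384, 400, 432, 450, 480, 512, 540, 576, 600, 640, 675, 702, 720, 768, 800, 864, 900, 960, 
    1024, 1080, 1152, 1200, 1280, 1350, 1440, 1536, 1600, 1728, 1800, 1920, 2048, 2160, 2304, 2400, 2560, 2700, 
    2880, 3072, 3200, 3456, 3600, 3840, 4320, 4608, 4800, 5120, 5400, 5616, 5760, 6144, 6400, 6912, 7200, 7680, 
    7800, 8640, 9216, 9600, 10240, 10800, 11232, 11520, 12800, 13824, 14400, 15360, 17280, 18432, 19200, 21600, 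
    23040, 23400, 25600, 27648, 28800, 30720, 34560, 38400, 43200, 46080, 51200, 55296, 57600, 62400, 69120, 
    76800, 86400, 92160, 115200, 124800, 138240, 153600, 172800, 230400, 276480, 345600, 460800, 691200]

/-- the facts on the Tits group -/
structure TF (G : Type*) [Group G] : Prop where
  card : Nat.card G = 17971200
  c5 : ∀ y : G, orderOf y = 5 → Nat.card (centralizer ({y} : Set G)) = 50
  ncomm : ∀ x y : G, orderOf x = 3 → orderOf y = 5 → x * y ≠ y * x
  conj3 : ∀ x y : G, orderOf x = 3 → orderOf y = 3 → IsConj x y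
  c3 : ∀ y : G, orderOf y = 3 → Nat.card (centralizer ({y} : Set G)) = 108
  n13 : ∀ R : Subgroup G, Nat.card R = 13 → Nat.card (centralizer (R : Set G)) = 13 ∧ Nat.card (normalizer (R : Set G)) = 78
  no9 : ∀ y : G, orderOf y ≠ 9
  no25 : ∀ y : G, orderOf y ≠ 25
  os : ∀ K : Subgroup G, K ≠ ⊤ → Nat.card K ∈ 1 :: tos
  odd : ∀ K : Subgroup G, K ≠ ⊤ → ¬ 2 ∣ K.index → Nat.card K ∣ 2 ^ 11 * 3 ∨ Nat.card K ∣ 2 ^ 11 * 5
  ords : ∀ (T : Type) [Group T] [Finite T], IsSimpleGroup T → (¬ ∀ a b : T, a * b = b * a) → Nat.card T ∣ 17971200 →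
    Nat.card T ∈ [60, 360, 5616, 7800, 62400, 17971200]

namespace TF

variable {G : Type*} [Group G] [Finite G] (F : TF G)

include F

theorem na [IsSimpleGroup G] : ¬ ∀ a b : G, a * b = b * a := by
  intro hab
  have h3 := Fact.mk Nat.prime_three
  have h5 := Fact.mk Nat.prime_five
  obtain ⟨x, hx⟩ := exists_prime_orderOf_dvd_card' (G := G) 3 (by rw [F.card]; norm_num)
  obtain ⟨y, hy⟩ := exists_prime_orderOf_dvd_card' (G := G) 5 (by rw [F.card]; norm_num)
  exact F.ncomm x y hx hy (hab x y)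

theorem os' {K : Subgroup G} (hK : K ≠ ⊤) : Nat.card K = 1 ∨ Nat.card K ∈ tos := List.mem_cons.1 (F.os K hK)

/-- `|K| = 25 r` -/
theorem card25 {K : Subgroup G} (h : 25 ∣ Nat.card K) : ∃ r, Nat.card K = 5 ^ 2 * r ∧ ¬ 5 ∣ r ∧ r ∣ 718848 := by
  obtain ⟨r, hr⟩ := h
  have h1 : Nat.card K ∣ 17971200 := by rw [← F.card]; exact Subgroup.card_subgroup_dvd_card K
  rw [hr] at h1
  have h2 : r ∣ 718848 := by
    have : 25 * r ∣ 25 * 718848 := by simpa using h1
    exact Nat.dvd_of_mul_dvd_mul_left (by norm_num) this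
  refine ⟨r, by rw [hr]; norm_num, fun h5 => ?_, h2⟩
  have := h5.trans h2
  norm_num at this

/-- the elements of a subgroup of order 25 -/
theorem ord5 {S : Subgroup G} (hS : Nat.card S = 25) {s : G} (hs : s ∈ S) (h1 : s ≠ 1) : orderOf s = 5 := by
  have h2 : orderOf s ∣ 5 ^ 2 := by
    have h3 : orderOf (⟨s, hs⟩ : S) ∣ Nat.card S := orderOf_dvd_natCard _
    rw [hS, Subgroup.orderOf_mk] at h3
    exact h3
  obtain ⟨i, hi, h3⟩ := (Nat.dvd_prime_pow Nat.prime_five).1 h2
  interval_cases i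
  · exact absurd (orderOf_eq_one_iff.1 h3) h1
  · exact h3
  · exact absurd h3 (F.no25 s)

/-- the subgroups of order 25 are TI -/
theorem ti {S S' : Subgroup G} (hS : Nat.card S = 25) (hS' : Nat.card S' = 25) {y : G} (hy : y ∈ S) (hy' : y ∈ S')
    (h1 : y ≠ 1) : S = S' := by
  have hf := Fact.mk Nat.prime_five
  have hab : ∀ S : Subgroup G, Nat.card S = 25 → ∀ a ∈ S, ∀ b ∈ S, a * b = b * a := by
    intro S hS a ha b hb
    have h2 := IsPGroup.commutative_of_card_eq_prime_sq (p := 5) (G := S) (by rw [hS]; norm_num) ⟨a, ha⟩ ⟨b, hb⟩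
    exact Subtype.ext_iff.1 h2
  have h5 := F.ord5 hS hy h1
  have hc := F.c5 y h5
  have hle : ∀ S : Subgroup G, Nat.card S = 25 → y ∈ S → S ≤ centralizer ({y} : Set G) := by
    intro S hS hy g hg
    rw [mem_centralizer_singleton_iff]
    exact hab S hS g hg y hy
  have hi : (S.subgroupOf (centralizer ({y} : Set G))).index = 2 := by
    have h2 := (S.subgroupOf (centralizer ({y} : Set G))).card_mul_index
    rw [Nat.card_congr (Subgroup.subgroupOfEquivOfLe (hle S hS hy)).toEquiv, hS, hc] at h2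
    omega
  apply Eq.symm
  apply Subgroup.eq_of_le_of_card_ge _ (by rw [hS, hS'])
  intro g hg
  have hgc := hle S' hS' hy' hg
  have h2 := Subgroup.mul_self_mem_of_index_two hi (⟨g, hgc⟩ : centralizer ({y} : Set G))
  have h3 : g * g ∈ S := h2
  have h4 : g ^ 25 = 1 := by
    have h5 := pow_card_eq_one' (x := (⟨g, hg⟩ : S'))
    rw [hS'] at h5
    exact Subtype.ext_iff.1 h5
  have h5 : g = (g * g) ^ 13 := by
    rw [← pow_two, ← pow_mul]
    have : g ^ (2 * 13) = g ^ 25 * g := by rw [← pow_succ]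
    rw [this, h4, one_mul]
  rw [h5]
  exact S.pow_mem h3 13

theorem mod25 {K S : Subgroup G} (hSK : S ≤ K) (hS : Nat.card S = 25) : nsub 25 K ≡ 1 [MOD 25] := by
  have hf := Fact.mk Nat.prime_five
  obtain ⟨r, hK, hr, -⟩ := F.card25 (K := K) (by rw [← hS]; exact Subgroup.card_dvd_of_le hSK)
  have h1 : nsub 25 K = Nat.card (Sylow 5 K) := nsub_eq Nat.prime_five hK hr
  obtain ⟨P, hP⟩ := exists_sylow Nat.prime_five hK hr S hSK (by rw [hS]; norm_num)
  have h2 := card_modEq_one (A := (P : Subgroup K)) (X := Sylow 5 K) P (by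
    intro a
    show (a : K) • P = P
    rw [Sylow.smul_eq_iff_mem_normalizer]
    exact Subgroup.le_normalizer a.2) (by
    intro a Q hQ ha
    have ha' : (a : K) • Q = Q := ha
    rw [Sylow.smul_eq_iff_mem_normalizer] at ha'
    by_contra hne
    apply hQ
    have h3 : (a : K) ∈ (P : Subgroup K) ⊓ (Q : Subgroup K) := by
      rw [← IsPGroup.inf_normalizer_sylow P.isPGroup' Q]
      exact ⟨a.2, ha'⟩
    have h4 := map_sylow Nat.prime_five hK hr P
    have h5 := map_sylow Nat.prime_five hK hr Q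
    have h6 := F.ti (y := ((a : K) : G)) h5.2 h4.2 ⟨_, (mem_inf.1 h3).2, rfl⟩ ⟨_, (mem_inf.1 h3).1, rfl⟩ (fun e => hne (by
      apply Subtype.ext
      apply Subtype.ext
      exact e))
    apply Sylow.ext
    exact Subgroup.map_injective K.subtype_injective h6)
  rw [h1]
  have h3 : Nat.card (P : Subgroup K) = 25 := card_sylow Nat.prime_five hK hr P
  rwa [h3] at h2

/-- orbit and stabiliser: a group `H` normalising `X` -/
theorem card_le_of_norm {H X : Subgroup G} {r c m : ℕ} (hXn : ∀ g ∈ H, ∀ k ∈ X, g * k * g⁻¹ ∈ X) (hX : Nat.card X = m)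
    (hc : ∀ y : G, orderOf y = r → Nat.card (centralizer ({y} : Set G)) ≤ c) {y : G} (hy : y ∈ X) (hyr : orderOf y = r)
    (hr : r ≠ 1) : Nat.card H ≤ (m - 1) * c := by
  classical
  letI := Fintype.ofFinite {z : X // z ≠ 1}
  have hy1 : y ≠ 1 := by
    rintro rfl
    rw [orderOf_one] at hyr
    exact hr hyr.symm
  have ho : ∀ g : G, orderOf (g * y * g⁻¹) = r := by
    intro g
    have := (MulAut.conj g).orderOf_eq y
    rw [MulAut.conj_apply] at this
    exact this.trans hyr
  have h1 : Nat.card H ≤ Nat.card (Σ z : {z : X // z ≠ 1 ∧ orderOf (z : G) = r}, {g : G // g * y * g⁻¹ = z.1}) := by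
    refine Nat.card_le_card_of_injective (fun g : H => (⟨⟨⟨g * y * (g : G)⁻¹, hXn g g.2 y hy⟩, fun e => ?_, ho g⟩, ⟨g, rfl⟩⟩ :
      (Σ z : {z : X // z ≠ 1 ∧ orderOf (z : G) = r}, {g : G // g * y * g⁻¹ = z.1}))) ?_
    · have e1 : (g : G) * y * (g : G)⁻¹ = 1 := Subtype.ext_iff.1 e
      apply hy1
      have e2 : y = (g : G)⁻¹ * ((g : G) * y * (g : G)⁻¹) * g := by group
      rw [e2, e1]
      group
    · intro a b e
      apply Subtype.ext
      exact congrArg (fun s : (Σ z : {z : X // z ≠ 1 ∧ orderOf (z : G) = r}, {g : G // g * y * g⁻¹ = z.1}) => (s.2.1 : G)) e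
  refine h1.trans ?_
  letI := Fintype.ofFinite {z : X // z ≠ 1 ∧ orderOf (z : G) = r}
  rw [Nat.card_sigma]
  refine (Finset.sum_le_card_nsmul _ _ c fun z _ => ?_).trans ?_
  · exact (card_conj_fib _ _).trans (hc _ z.2.2)
  · rw [smul_eq_mul, Finset.card_univ, ← Nat.card_eq_fintype_card]
    apply Nat.mul_le_mul_right
    have h2 : Nat.card {z : X // z ≠ 1} = m - 1 := by
      letI := Fintype.ofFinite X
      rw [Nat.card_eq_fintype_card, Fintype.card_subtype_compl, Fintype.card_subtype_eq, ← Nat.card_eq_fintype_card, hX]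
    rw [← h2]
    exact Nat.card_le_card_of_injective (fun z : {z : X // z ≠ 1 ∧ orderOf (z : G) = r} => (⟨z.1, z.2.1⟩ : {z : X // z ≠ 1}))
      fun a b e => Subtype.ext (congrArg (fun z : {z : X // z ≠ 1} => z.1) e)

theorem norm25 {S : Subgroup G} (hS : Nat.card S = 25) : Nat.card (normalizer (S : Set G)) = 1200 := by
  have hle : Nat.card (normalizer (S : Set G)) ≤ 1200 := by
    obtain ⟨y, hy, hy1⟩ : ∃ y ∈ S, y ≠ 1 := by
      by_contra hcon
      push Not at hcon
      have : S = ⊥ := (Subgroup.eq_bot_iff_forall S).2 hcon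
      rw [this, Subgroup.card_bot] at hS
      norm_num at hS
    have := F.card_le_of_norm (H := normalizer (S : Set G)) (X := S) (r := 5) (c := 50) (m := 25)
      (fun g hg k hk => (mem_normalizer_iff.1 hg k).1 hk) hS (fun y hy => (F.c5 y hy).le) hy (F.ord5 hS hy hy1) (by norm_num)
    norm_num at this
    exact this
  have h1 := F.mod25 (K := ⊤) (S := S) le_top hS
  obtain ⟨r, hK, hr, -⟩ := F.card25 (K := (⊤ : Subgroup G)) (by rw [← hS]; exact Subgroup.card_dvd_of_le le_top)
  have h2 := nsub_mul Nat.prime_five hK hr (S := S) le_top (by rw [hS]; norm_num)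
  rw [top_inf_eq, Subgroup.card_top, F.card] at h2
  have h3 : 25 ∣ Nat.card (normalizer (S : Set G)) := by
    rw [← hS]
    exact Subgroup.card_dvd_of_le Subgroup.le_normalizer
  obtain ⟨m, hm⟩ := h3
  rw [hm] at h2 hle ⊢
  have h4 : nsub 25 (⊤ : Subgroup G) = nsub (5 ^ 2) (⊤ : Subgroup G) := rfl
  rw [h4] at h1
  generalize nsub (5 ^ 2) (⊤ : Subgroup G) = n at *
  have h5 : n * m = 718848 := by
    have : 25 * (n * m) = 25 * 718848 := by rw [← h2.trans (by norm_num : 17971200 = 25 * 718848)]; ring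
    omega
  have hm48 : m ≤ 48 := by omega
  have h6 : n % 25 = 1 := h1
  interval_cases m <;> omega

end TF

end Cfsg.Agent.H250.EP
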